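import Cfsg.Agent.Fusion.CQ

/-! The `p'`-residual of a weakly normal subsystem is normal. -/

set_option autoImplicit false
set_option linter.unusedSectionVars false

namespace Cfsg.Agent.Fusion

universe u v

namespace FS

variable {G : Type u} {G' : Type v} [Group G] [Group G'] [Finite G] [Finite G'] {U₀ : Subgroup G}
  {θ : U₀ →* G'} {p : ℕ} [hp : Fact p.Prime] {P Q R T U V W : Subgroup G}
  {a g h x φ χ : G} {a' g' χ' : G'} {F D E : FS G} {F' : FS G'}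

theorem Sat.cj_sup_CS (hF : F.Sat p) (hT : F.SC T) (hP : F.CenT T P)
    (h : F.M (P ⊔ (F.S ⊓ cz T)) φ) : cj φ (P ⊔ (F.S ⊓ cz T)) = cj φ P ⊔ (F.S ⊓ cz T) := by
  obtain ⟨ψ, h1, h2⟩ := hF.lift hT h
  have h3 := mem_nz_CS (F.mono h1 (le_sup_right.trans le_sup_left)) (hT.mem_nz h1 le_sup_right)
  have h4 := hP.cj hT (F.mono h le_sup_left)
  have key : ∀ x ∈ F.S ⊓ cz T, (φ * x * φ⁻¹)⁻¹ * (ψ * x * ψ⁻¹) ∈ cj φ P := fun x hx =>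
    h4.cz_le hT.1 ⟨h2 x (Subgroup.mem_sup_right hx), (cz _).mul_mem ((cz _).inv_mem
      (conj_mem_cz_cj (cz_anti hP.1 hx.2))) (cz_anti h4.1 (conj_mem_of_nz h3 hx).2)⟩
  rw [cj_sup]
  refine le_antisymm (sup_le le_sup_left (cj_le_iff.2 fun x hx => ?_))
    (sup_le le_sup_left fun y hy => ?_)
  · exact mem_of_eq (mul_mem (Subgroup.mem_sup_right (conj_mem_of_nz h3 hx))
      (Subgroup.mem_sup_left (inv_mem (key x hx)))) (by group)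
  · have hx := conj_mem_of_nz' h3 hy
    exact mem_of_eq (mul_mem (Subgroup.mem_sup_right (conj_mem_cj_of hx))
      (Subgroup.mem_sup_left (key _ hx))) (by group)

theorem Quo.indM_sup (q : Quo θ F F') (hg : F.M (P ⊔ R) g) (hP : P ≤ F.S ⊓ pre θ ⊥)
    (hn : R ≤ nz P) (e : IndM θ R g g') : IndM θ (P ⊔ R) g g' := fun x hx => by
  obtain ⟨u, hu, c, hc, rfl⟩ := (mem_sup_of_nz' hn).1 hx
  have h1 := q.sc_ker.conj_mem hg (Subgroup.mem_sup_left hu) (hP hu)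
  have h2 := q.le (F.le_S hg (Subgroup.mem_sup_right hc))
  rw [show g * (u * c) * g⁻¹ = g * u * g⁻¹ * (g * c * g⁻¹) by group, fn_mul θ (q.le h1.1)
    (q.le (conj_mem hg (Subgroup.mem_sup_right hc))), fn_mul θ (q.le (hP hu).1) h2,
    Subgroup.mem_bot.1 (mem_pre.1 h1.2).2, Subgroup.mem_bot.1 (mem_pre.1 (hP hu).2).2, e c hc]
  group

theorem Quo.up_step (q : Quo θ F F') (hF : F.Sat p) (hz : F.S ⊓ pre θ ⊥ = T) (hP : F.CenT T P)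
    (hn : F.FN P) (h1 : χ ∈ F.aut (P ⊔ (F.S ⊓ cz T))) (h2 : χ ∈ cz P)
    (e : IndM θ (P ⊔ (F.S ⊓ cz T)) χ χ') (hc : (orderOf χ').Coprime p) :
    ∃ d ∈ F.aut (T ⊓ nz P ⊔ (F.S ⊓ cz T)), d ∈ cz (T ⊓ nz P) ∧
      IndM θ (T ⊓ nz P ⊔ (F.S ⊓ cz T)) d χ' := by
  have hT : F.SC T := hz ▸ q.sc_ker
  have hK := hF.normK ((hF.fc hn).fk_of_le (cz_le_ai T P) (ai_mono hT.1 P))
  have hC : F.S ⊓ cz T ≤ cz P := inf_le_right.trans (cz_anti hP.1)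
  have hPT : P ≤ T ⊓ nz P := le_inf hP.1 (le_nz P)
  have hS : P ⊔ (F.S ⊓ cz T) ≤ F.S := sup_le hn.1 inf_le_left
  have k0 := hT.of_le (F.normK_le P (ai T P))
  have e0 : (F.normK P (ai T P)).S ⊓ T = T ⊓ nz P := by
    rw [normK_S]
    exact le_antisymm (le_inf inf_le_right (inf_le_left.trans (inf_le_right.trans (ai_le_nz _ _))))
      (le_inf (le_inf (inf_le_left.trans hT.1) (inf_le_ai _ _)) inf_le_left)
  rw [e0] at k0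
  obtain ⟨ψ, k1, k2⟩ := hK.lift k0 (normK_M_of hn.1 (ai_le_nz _ _) (sup_le (hPT.trans
    (inf_le_ai _ _)) (hC.trans (cz_le_ai _ _))) (cz_le_ai _ _ h2) (by
      rw [sup_eq_left.2 le_sup_left]; exact M_of_aut hS h1))
  obtain ⟨-, c, k3, k4, k5⟩ := (normK_M hn.1 (ai_le_nz _ _)).1 k1
  obtain ⟨t, t1, t2, d, d1, e1⟩ := mem_ai'.1 k4
  have hle : T ⊓ nz P ⊔ (F.S ⊓ cz T) ≤ P ⊔ (F.S ⊓ cz T) ⊔ T ⊓ nz P :=
    sup_le le_sup_right (le_sup_right.trans le_sup_left)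
  have d2 : F.M (T ⊓ nz P ⊔ (F.S ⊓ cz T)) (t⁻¹ * (ψ * c)) :=
    S_mul (F.mono k5 (hle.trans le_sup_left)) (inv_mem (hT.1 t1))
  have d3 : t⁻¹ * (ψ * c) ∈ cz P := mem_of_eq d1 (by rw [e1]; group)
  have d4 := hT.mem_nz_NT d2 le_sup_left (cz_le_nz _ d3)
  have d5 : ∀ x ∈ F.S ⊓ cz T, t⁻¹ * (ψ * c) * x * (t⁻¹ * (ψ * c))⁻¹ =
      t⁻¹ * (χ * x * χ⁻¹ * ((χ * x * χ⁻¹)⁻¹ * (ψ * x * ψ⁻¹))) * t := fun x hx => by
    rw [mul_inv_cancel_left, ← conj_mul_cz (g := ψ) k3 (hle (Subgroup.mem_sup_right hx))]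
    group
  have d6 : t⁻¹ * (ψ * c) ∈ nz (T ⊓ nz P ⊔ (F.S ⊓ cz T)) := mem_nz_of_le (by
    rw [cj_sup, cj_of_nz d4]
    refine sup_le le_sup_left (cj_le_iff.2 fun x hx => ?_)
    have : t ∈ T ⊓ nz P ⊔ (F.S ⊓ cz T) := Subgroup.mem_sup_left ⟨t1, t2⟩
    rw [d5 x hx]
    exact mul_mem (mul_mem (inv_mem this) (mul_mem (sup_le_sup_right hPT _ (conj_mem_of_nz
      (F.aut_le_nz _ h1) (Subgroup.mem_sup_right hx))) (Subgroup.mem_sup_left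
        (k2 x (Subgroup.mem_sup_right hx))))) this)
  have d7 : IndM θ (T ⊓ nz P ⊔ (F.S ⊓ cz T)) (t⁻¹ * (ψ * c)) χ' := by
    refine q.indM_sup d2 (hz ▸ inf_le_left) ((inf_le_right.trans (cz_anti inf_le_left)).trans
      (cz_le_nz _)) fun x hx => ?_
    have l1 := conj_mem (M_of_aut hS h1) (Subgroup.mem_sup_right hx)
    rw [← e x (Subgroup.mem_sup_right hx), eq_comm,
      fn_eq_iff (q.le l1) (q.le (conj_mem d2 (Subgroup.mem_sup_right hx))), d5 x hx]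
    refine (hz.ge (mem_of_eq (mul_mem (mul_mem (conj_mem_of_nz' (hT.S_le_nz l1) (inv_mem t1))
      (k2 x (Subgroup.mem_sup_right hx)).1) t1) (by group))).2
  obtain ⟨b, b1, b2, b3⟩ := d7.cop_left d6 hc
  have b4 := (Subgroup.zpowers_le.2 (mem_aut_of d2 d6)) b1
  have b5 := (Subgroup.zpowers_le.2 d3) b1
  have b6 := (Subgroup.zpowers_le.2 d4) b1
  refine ⟨b, b4, (pmod_stab (F := F) (hF.pg.to_le hn.1)).mem_of_cop ⟨aut_restrict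
    (sup_le (inf_le_left.trans hT.1) inf_le_left) b4 le_sup_left b6, mem_trv.2 ⟨cz_le_nz _ b5,
      fun x hx => hP.cz_le hT.1 ⟨T.mul_mem (T.inv_mem hx.1) (conj_mem_of_nz b6 hx).1, ?_⟩⟩, b5⟩
    b2, b3⟩
  exact mem_of_eq (mul_mem (conj_mem_cz' hx.2 b5) (inv_mem b5)) (by group)

theorem Quo.up (q : Quo θ F F') (hF : F.Sat p) (hz : F.S ⊓ pre θ ⊥ = T) (hP : F.CenT T P) :
    ∀ χ χ', χ ∈ F.aut (P ⊔ (F.S ⊓ cz T)) → χ ∈ cz P → IndM θ (P ⊔ (F.S ⊓ cz T)) χ χ' →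
      (orderOf χ').Coprime p →
      ∃ b ∈ F.aut (T ⊔ (F.S ⊓ cz T)), b ∈ cz T ∧ IndM θ (T ⊔ (F.S ⊓ cz T)) b χ' := by
  have hT : F.SC T := hz ▸ q.sc_ker
  revert hP
  refine fun hP => down_induction (S := T) (Φ := fun P => F.CenT T P → ∀ χ χ',
    χ ∈ F.aut (P ⊔ (F.S ⊓ cz T)) → χ ∈ cz P → IndM θ (P ⊔ (F.S ⊓ cz T)) χ χ' →
      (orderOf χ').Coprime p →
      ∃ b ∈ F.aut (T ⊔ (F.S ⊓ cz T)), b ∈ cz T ∧ IndM θ (T ⊔ (F.S ⊓ cz T)) b χ')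
    (fun P hPT ih hP χ χ' h1 h2 e hc => ?_) P hP.1 hP
  rcases hPT.eq_or_lt with rfl | hlt
  · exact ⟨χ, h1, h2, e⟩
  have hS := hPT.trans hT.1
  obtain ⟨φ, k1, k2⟩ := hF.exists_FN hS
  have hle : P ⊔ (F.S ⊓ cz T) ≤ F.S ⊓ nz P :=
    sup_le (le_NS hS) (inf_le_inf_left _ ((cz_anti hPT).trans (cz_le_nz _)))
  obtain ⟨φ', k3, e1⟩ := q.fwd k1
  obtain ⟨ψ, k4, e2⟩ := q.bwd' inf_le_left k3
  rw [hz] at k4 e2
  have hle' : T ⊔ (F.S ⊓ cz T) ≤ F.S ⊓ nz P ⊔ T :=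
    sup_le le_sup_right (le_sup_right.trans (hle.trans le_sup_left))
  have k5 := M_nz_sup_CS (F.mono k4 hle') (hT.mem_nz k4 le_sup_right)
  have k6 := F.mono k1 hle
  have k7 := hP.cj hT (F.mono k6 le_sup_left)
  have k8 := hF.cj_sup_CS hT hP k6
  obtain ⟨d, d1, d2, d3⟩ := q.up_step hF hz k7 k2 (k8 ▸ cj_aut_le k6 (conj_mem_cj_of h1))
    (conj_mem_cz_cj h2) (k8 ▸ e.conj (e1.mono hle) le_rfl (cj_of_nz (F.aut_le_nz _ h1)).le)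
    (by rwa [orderOf_conj'])
  have k9 : cj φ P < T := lt_of_le_of_ne k7.1 fun k => (card_lt_of_lt hlt).ne (by rw [← k, card_cj])
  obtain ⟨b, b1, b2, b3⟩ := ih _ inf_le_left (card_cj φ P ▸ card_lt_of_lt (lt_inf_nz
    (hF.pg.to_le hT.1) k9)) (k7.mono (le_inf k7.1 (le_nz _)) inf_le_left) d _ d1 d2 d3
    (by rwa [orderOf_conj'])
  refine ⟨ψ⁻¹ * b * ψ⁻¹⁻¹, mul_mem (mul_mem (inv_mem k5) b1) (inv_mem (inv_mem k5)),
    conj_mem_cz (inv_mem (hT.mem_nz k4 le_sup_right)) b2, ?_⟩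
  have := b3.conj (e2.mono hle').inv (cj_of_nz (F.aut_le_nz _ k5)).ge
    (by rw [cj_of_nz (F.aut_le_nz _ k5), cj_of_nz (F.aut_le_nz _ b1)])
  rw [cj_of_nz (inv_mem (F.aut_le_nz _ k5))] at this
  convert this using 1
  group

theorem Quo.exists_pi (q : Quo θ F F') (hF : F.Sat p) (hz : F.S ⊓ pre θ ⊥ = T) :
    ∃ A : FS G, A.S = T ∧ A.Invt F ∧ ∀ P g, A.M P g → F.CenT T P →
      ∃ c ∈ cz P, F.M (P ⊔ (F.S ⊓ cz T)) (g * c) ∧ IndM θ (P ⊔ (F.S ⊓ cz T)) (g * c) 1 := by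
  have hT : F.SC T := hz ▸ q.sc_ker
  let A : FS G := ⟨T, fun P g => P ≤ T ∧ F.M P g ∧ (F.CenT T P →
      ∃ c ∈ cz P, F.M (P ⊔ (F.S ⊓ cz T)) (g * c) ∧ IndM θ (P ⊔ (F.S ⊓ cz T)) (g * c) 1),
    fun h => h.1, fun h => hT.2 _ _ h.1 h.2.1,
    fun ⟨h1, h2, h3⟩ hR => ⟨hR.trans h1, F.mono h2 hR, fun k =>
      have ⟨c, a1, a2, a3⟩ := h3 (k.mono hR h1)
      ⟨c, cz_anti hR a1, F.mono a2 (sup_le_sup_right hR _), a3.mono (sup_le_sup_right hR _)⟩⟩,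
    fun ⟨h1, h2, h3⟩ hd => ⟨h1, F.mul_cz h2 hd, fun k =>
      have ⟨c, a1, a2, a3⟩ := h3 k
      ⟨_, mul_mem (inv_mem hd) a1, by simpa using a2, by simpa using a3⟩⟩,
    fun {P s} h1 hs => ⟨h1, F.inner (h1.trans hT.1) (hT.1 hs), fun _ => by
      have h2 : P ⊔ (F.S ⊓ cz T) ≤ F.S := sup_le (h1.trans hT.1) inf_le_left
      have h3 := indM_mem (θ := θ) (q.leU h2) (q.le (hT.1 hs))
      rw [Subgroup.mem_bot.1 (mem_pre.1 (hz.ge hs).2).2] at h3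
      exact ⟨1, one_mem _, by simpa using F.inner h2 (hT.1 hs), by simpa using h3⟩⟩,
    fun {P g h} ⟨h1, h2, h3⟩ ⟨_, h4, h5⟩ => ⟨h1, F.mul h2 h4, fun k => by
      obtain ⟨c, a1, a2, a3⟩ := h3 k
      obtain ⟨d, b1, b2, b3⟩ := h5 (k.cj hT h2)
      have e := (hF.cj_sup_CS hT k a2).le
      rw [cj_mul_cz a1] at e
      have e' : h * g * (g⁻¹ * d * g * c) = h * d * (g * c) := by group
      exact ⟨_, mul_mem (conj_inv_mem_cz b1) a1, e' ▸ mul' a2 b2 e, e' ▸ by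
        simpa using a3.mul b3 e⟩⟩,
    fun {P g} ⟨h1, h2, h3⟩ => ⟨hT.2 _ _ h1 h2, F.inv h2, fun k => by
      have k' := k.cj hT (F.inv h2)
      rw [cj_inv_cj] at k'
      obtain ⟨c, a1, a2, a3⟩ := h3 k'
      have e := (hF.cj_sup_CS hT k' a2).ge
      rw [cj_mul_cz a1] at e
      have e' : g⁻¹ * (g * c⁻¹ * g⁻¹) = (g * c)⁻¹ := by group
      exact ⟨_, conj_mem_cz_cj (inv_mem a1), e' ▸ inv' a2 e, e' ▸ by
        simpa using a3.inv.mono e⟩⟩⟩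
  refine ⟨A, rfl, hF.invt_of_normal (fun _ _ h => h.2.1) hT (fun a ha => ?_) fun U h1 h2 =>
    ⟨F.exb U, cz_le_exb, fun a ha => ?_, hF.le_nz_exb (hF.fc h2), fun t ht => ?_⟩,
    fun _ _ h => h.2.2⟩
  · obtain ⟨c₀, k1, k2⟩ := (hF.rc hT.fn).extend_cz (M_of_aut hT.1 ha) (cj_of_nz (F.aut_le_nz _ ha))
    rw [← cjs_congr (b := a * c₀) (by simpa using k1)]
    generalize a * c₀ = b at k2
    have k3 := F.mono k2 le_sup_left
    refine cjs_le_iff.2 fun P g ⟨h1, h2, h3⟩ => ⟨hT.2 _ _ h1 (F.mono k3 h1), ?_, fun k => ?_⟩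
    · exact mul' (F.inv (F.mono k3 h1)) (mul' h2 k3 (hT.2 _ _ h1 h2)) (by simp)
    have k' := k.cj hT (F.inv (F.mono k3 h1))
    rw [cj_inv_cj] at k'
    obtain ⟨c, a1, a2, a3⟩ := h3 k'
    have l1 := sup_le_sup_right h1 (F.S ⊓ cz T)
    have l2 := (hF.cj_sup_CS hT k' a2).le.trans (sup_le_sup_right (hT.2 _ _ h1
      (F.mono a2 le_sup_left)) _)
    obtain ⟨b', -, e⟩ := q.fwd k2
    have e' : b * g * b⁻¹ * (b * c * b⁻¹) = b * (g * c) * b⁻¹ := by group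
    refine ⟨_, conj_mem_cz_cj a1, ?_⟩
    rw [e', ← hF.cj_sup_CS hT k' (F.mono k2 l1)]
    exact ⟨mul' (F.inv (F.mono k2 l1)) (mul' a2 k2 l2) (by simp), by simpa using a3.conj e l1 l2⟩
  · obtain ⟨c, k1, k2, k3⟩ := mem_exb.1 ha
    have hU := h2.1
    have k4 := M_of_aut (sup_CS_le hU) k2
    have k5 := F.mono k4 (sup_le_sup_left (inf_le_inf_left _ (cz_anti h1.1)) U)
    refine mem_aut_of ⟨h1.1, by simpa using F.mul_cz (F.mono k4 le_sup_left) (inv_mem k1),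
      fun _ => ⟨c, k1, k5, (q.indM_one_iff k5).2 fun x hx => hz.ge (h1.1 ((mem_trv.1 k3).2 x
        (sup_le_sup_left (inf_le_inf_left _ (cz_anti h1.1)) U hx)))⟩⟩ ?_
    exact mem_of_eq (mul_mem (mem_trv.1 k3).1 (inv_mem (cz_le_nz _ k1))) (by group)
  · have k1 := mem_nz_sup_CS (hT.1 ht.1) ht.2
    have k2 := hT.NT_le_trv (sup_CS_le h2.1) ⟨ht.1, k1⟩
    rw [sup_CS_inf h1.1 (h1.cz_le hT.1)] at k2
    exact mem_exb_of (mem_aut_of (F.inner (sup_CS_le h2.1) (hT.1 ht.1)) k1) k2 (by simp)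

theorem WN.qres (h : WN p E F) (hD : E.QRes p D) : NorIn p D F := by
  have hF := h.satF
  have hE := h.satE
  have i := h.invt
  have hT := i.sc
  refine ⟨⟨hD.1, hF, (hD.invt hE).trans i fun _ ha => (hD.cjs_eq (i.cjs_eq ha)).le⟩,
    extc_iff.2 ?_⟩
  obtain ⟨D', h1, h2⟩ := hE.exists_qres'
  obtain rfl := hD.unique h1
  rw [hD.2.1.1]
  refine h2.trans ((Subgroup.closure_le _).2 fun a ⟨a1, P, a2, a3⟩ => ?_)
  obtain ⟨G', _, _, θ, F', q, hz, -⟩ := hF.exists_quo hT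
  obtain ⟨A, e, i', hA⟩ := q.exists_pi hF hz
  have hle : E.q0 p E.Cent ≤ A := q0_le_of e.ge fun U _ hU => i'.pres'_le hE i.le e.ge hU
  obtain ⟨y, z, e1, -, ⟨k, hk⟩, hc, hy, hz'⟩ := exists_ppart p a
  have y1 : y ∈ ai E.S E.S := pres'_le_of_nd (E.aut_le_nz_inn _) hE.aut_S_nd
    (mem_pres' ((Subgroup.zpowers_le.2 a1) hy) hk)
  have z1 := aut_mono i.le _ ((Subgroup.zpowers_le.2 a1) hz')
  have hP := i.cenT_iff.2 a2
  have z2 : A.M P z := by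
    have := mul' (hle _ _ a3) (M_of_aut e.ge (ai_le_aut e.ge e.ge (inv_mem y1)))
      (E.cj_le (q0_le _ _ a3))
    rwa [← e1, inv_mul_cancel_left] at this
  obtain ⟨c, c1, c2, c3⟩ := hA P z z2 hP
  obtain ⟨c₀, k1, k2⟩ := (hF.rc hT.fn).extend_cz (M_of_aut hT.1 z1) (cj_of_nz (F.aut_le_nz _ z1))
  obtain ⟨b, b1, b2, b3⟩ := exists_cop (g := z * c₀) hc (F.aut_le_nz_cz _ z1) (by simpa using k1)
  have b4 := (Subgroup.zpowers_le.2 (M_nz_sup_CS k2 (mul_mem (F.aut_le_nz _ z1)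
    (cz_le_nz _ k1)))) b1
  have hV := sup_CS_le (F := F) hT.1
  obtain ⟨b₀, -, e₀⟩ := q.fwd (M_of_aut hV b4)
  obtain ⟨b', -, b5, e'⟩ := e₀.cop_right (F.aut_le_nz _ b4) b2
  have l1 := sup_le_sup_right hP.1 (F.S ⊓ cz E.S)
  have l2 := F.mono (M_of_aut hV b4) l1
  have l3 : cj b (P ⊔ (F.S ⊓ cz E.S)) = cj (z * c) (P ⊔ (F.S ⊓ cz E.S)) := by
    rw [hF.cj_sup_CS hT hP l2, hF.cj_sup_CS hT hP c2, cj_mul_cz c1,
      ← cj_mul_cz (g := z) (cz_anti hP.1 b3), mul_inv_cancel_left]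
  obtain ⟨d, d1, d2, d3⟩ := q.up hF hz hP ((z * c)⁻¹ * b) b' (mem_aut_of (mul' l2 (F.inv c2) l3.le)
    (mem_nz_iff.2 (by rw [cj_mul, l3, cj_inv_cj]))) (mem_of_eq (mul_mem (inv_mem c1)
      (cz_anti hP.1 b3)) (by group)) (by simpa using (e'.mono l1).mul c3.inv l3.le) b5
  have m1 := mul_mem (inv_mem d1) b4
  have m2 : IndM θ (E.S ⊔ (F.S ⊓ cz E.S)) (d⁻¹ * b) 1 := by
    simpa using e'.mul d3.inv (by rw [cj_of_nz (F.aut_le_nz _ d1), cj_of_nz (F.aut_le_nz _ b4)])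
  rw [← e1]
  refine mul_mem ((ai_self _).le.trans (sup_le (le_exb hT.1) cz_le_exb) y1) (mem_exb_of m1
    (mem_trv.2 ⟨hT.mem_nz (M_of_aut hV m1) le_sup_left, fun x hx => hz.le
      ((q.indM_one_iff (M_of_aut hV m1)).1 m2 x hx)⟩) ?_)
  exact mem_of_eq (mul_mem (conj_mem_cz' (F.aut_le_nz _ z1) (inv_mem d2)) b3) (by group)

end FS

end Cfsg.Agent.Fusion
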