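import Cfsg.Agent.Fusion.Tri
import Cfsg.Agent.Fusion.Norm1
import Cfsg.Agent.Glaub.FP

/-! Failure of control of fusion by `Z(J(S))` produces the group `F(p)`. -/

set_option autoImplicit false
set_option linter.unusedSectionVars false

namespace Cfsg.Agent.Fusion

open Cfsg.Agent.PLocal (jn zOf)
open Cfsg.Agent.Glaub (Pl Eig)
open Cfsg.Agent.LocalEven (pResOf MinIn)
open scoped commutatorElement

universe u

namespace FS

variable {G : Type u} [Group G] [Finite G] {p : ℕ} [hp : Fact p.Prime] {F D E : FS G}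
  {H T Z Q K : Subgroup G}

theorem Sat.le_of_max (hD : D.Sat p) (hSE : D.S ≤ E.S) (hc : ¬ D.Con p)
    (hloc : ∀ U, D.FN U → D.core < U →
      (∀ K, D.core < K → K ≤ D.S → D.S ⊓ nz U < D.S ⊓ nz K → D.NF K ≤ E) → D.NF U ≤ E) :
    D ≤ E := by
  have hQ := D.nor_core
  have hS : D.core < D.S := lt_of_le_of_ne hQ.1 fun h => hc (hD.con_of_S_le h.ge)
  refine hD.le_of_ess_ind ?_ hSE fun P hP ihP => ?_
  · rw [← NF_aut le_rfl]
    exact aut_mono (hloc _ D.FN_S hS fun K _ _ h =>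
      absurd (inf_le_left.trans (le_inf le_rfl (le_nz _))) h.not_ge) _
  have key : ∀ T, T ≤ D.S → Nat.card P < Nat.card T → ∀ U, D.FN U → D.core < U →
      D.S ⊓ nz U = T → D.NF U ≤ E := by
    refine down_induction fun T hT ihT hPT U hU hne e => hloc U hU hne fun K k0 hK k1 => ?_
    rw [e] at k1
    obtain ⟨g, hg, hgn⟩ := hD.exists_FN hK
    have k2 : Nat.card T < Nat.card (D.S ⊓ nz (cj g K) : Subgroup G) :=
      (card_lt_of_lt k1).trans_le (by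
        rw [← card_cj g]; exact card_le_of_le (cj_inf_nz_le hg inf_le_right))
    refine NF_le_of_cj hK hg (ihP _ _ (hPT.trans (card_lt_of_lt k1)) hg)
      (ihT _ inf_le_left k2 (hPT.trans k2) _ hgn ?_ rfl)
    rw [← cj_of_nz (hQ.sc.mem_nz hg (k0.le.trans (le_NS hK)))]
    exact cj_lt_cj.2 k0
  rw [← NF_aut hP.le]
  exact aut_mono (key _ inf_le_left (card_lt_of_lt (hD.lt_NS (hP.lt hD))) P hP.fn
    (lt_of_le_of_ne (hQ.le_of_rad hD.pg hP.cent (hP.rad hD.pg))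
      fun e => hc ⟨hD, _, hQ, e ▸ hP.cent⟩) rfl) P

theorem red (Φ : FS G → Prop) (h0 : ∀ D, Φ D → D.S ≤ E.S)
    (h1 : ∀ D D', Φ D → D.Sat p → D'.Sat p → D' ≤ D → D'.S = D.S → Φ D')
    (h2 : ∀ D U, D.Sat p → Φ D → (∀ D' < D, D'.Sat p → Φ D' → D' ≤ E) →
      D.aut D.core ≤ ai D.S D.core → D.FN U → D.core < U → D.S ⊓ nz U < D.S →
      (∀ K, D.core < K → K ≤ D.S → D.S ⊓ nz U < D.S ⊓ nz K → D.NF K ≤ E) → D.NF U ≤ E)
    (h3 : ∀ D, D.Con p → Φ D → D ≤ E) (D : FS G) : D.Sat p → Φ D → D ≤ E := by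
  refine lt_ind (Φ := fun D => D.Sat p → Φ D → D ≤ E) (fun D ih hD hΦ => ?_) D
  by_cases hc : D.Con p
  · exact h3 D hc hΦ
  have hQ := D.nor_core
  have hSn : D.S ≤ nz D.core := hQ.sc.S_le_nz
  have top : ∀ U, U ≤ D.S → D.S ≤ nz U → ¬ U ≤ D.core → D.NF U ≤ E := fun U k1 k2 k3 => by
    have s := hD.NF (FN.of_normal k1 k2)
    exact ih _ (NF_lt' k1 k3) s (h1 D _ hΦ hD s (normK_le _ _ _) (NF_S_of_normal k2))
  by_cases e : D.SCF D.core = D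
  · refine hD.le_of_max (h0 D hΦ) hc fun U hU hlt hK => ?_
    rcases (inf_le_left : D.S ⊓ nz U ≤ D.S).lt_or_eq with h | h
    · exact h2 D U hD hΦ ih (by simpa only [e] using SCF_aut_le (F := D) hQ.1) hU hlt h hK
    · exact top U hU.1 (inf_eq_left.1 h) hlt.not_ge
  · have s := hD.SCF hQ.sc.fn
    exact hD.stancu hQ (ih _ (lt_of_le_of_ne (normK_le _ _ _) e) s
      (h1 D _ hΦ hD s (normK_le _ _ _) (SCF_S hSn))) (top _ (sup_le hQ.1 inf_le_left)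
        (fun s hs => mem_nz_sup (hSn hs) (mem_nz_inf (le_nz _ hs) (nz_le_nz_cz _ (hSn hs))))
        fun h => hc (con_iff.2 ⟨hD, le_sup_right.trans h⟩))

/-- The conclusion of Glauberman's theorem inside a system. -/
def Cc (p : ℕ) (Z : Subgroup G) (E : FS G) : Prop :=
  ∃ P ≤ E.S, Pl p P (E.aut P) ∧ Eig p (Z ⊓ P) (E.aut P)

theorem fin (hp2 : p ≠ 2) (hn : ¬ Cc p Z E) (hT : Syl p T H) (hH : LocalEven.CharP p H)
    (hZ : Z ≤ cz Z) (hTZ : T ≤ nz Z) (hE : E.SC Z) (hTE : T ≤ E.S)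
    (h1 : ∀ X, T ≤ X → X ≤ H → X ≤ nz T ∨ X ≤ nz (Z ⊓ T) → ofGroup T X ≤ E)
    (h2 : ∀ L M, T ≤ L → L ≤ H → ¬ ofGroup T L ≤ E → MinIn T L M → LocalEven.CharP p L →
      ¬ L ≤ nz (Z ⊓ pCoreOf p L) → ∃ B B₀ a, B ≤ pCoreOf p L ∧ L ≤ nz B ∧ L ≤ nz B₀ ∧
        pResOf p L ≤ cz B₀ ∧ a ∈ T ∧ a ∉ pCoreOf p L ∧ (∀ v ∈ B, ⁅a, ⁅a, v⁆⁆ ∈ B₀) ∧
        ¬ L ≤ nz (Z ⊓ B)) : ofGroup T H ≤ E := by
  by_contra hne
  obtain ⟨L, ⟨a1, a2, a3⟩, hmin⟩ := (wellFounded_lt (α := Subgroup G)).has_min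
    {L | T ≤ L ∧ L ≤ H ∧ ¬ ofGroup T L ≤ E} ⟨H, hT.le, le_rfl, hne⟩
  have hlt : ∀ X, T ≤ X → X < L → ofGroup T X ≤ E := fun X b1 b2 =>
    by_contra fun b3 => hmin X ⟨b1, b2.le.trans a2, b3⟩ b2
  have sL := (hT.mono a1 a2).isIn
  have cL := hH.of_le (hT.isIn.pCoreOf_le.trans a1) a2
  set P := pCoreOf p L
  have hPT : P ≤ T := sL.pCoreOf_le
  have nP : L ≤ nz P := LocalEven.le_normalizer_pCoreOf L
  have aut : ∀ X, T ≤ X → X < L → X ≤ E.aut P := fun X b1 b2 g hg =>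
    mem_aut_of (hlt X b1 b2 _ _ (ofGroup_M_of hPT ((cj_of_nz (nP (b2.le hg))).le.trans hPT) hg))
      (nP (b2.le hg))
  have hL : ¬ L ≤ nz (Z ⊓ P) := fun nK => by
    have k : Z ⊓ T ≤ P := le_trans (b := L ⊓ (LocalEven.centMod P (Z ⊓ P) ⊓ cz (Z ⊓ P)))
      (le_inf (inf_le_right.trans a1) (le_inf (LocalEven.le_centMod.2
        ⟨inf_le_right.trans (a1.trans nK), le_inf ?_ ?_⟩)
        (inf_le_left.trans (hZ.trans (cz_anti inf_le_left)))))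
      (Glaub.le_pCoreOf_of_stab cL inf_le_left (fun g hg => mem_nz_inf (le_nz _ hg)
        (mem_nz_inf (LocalEven.le_normalizer_centMod nP nK hg) (nz_le_nz_cz _ (nK hg))))
        (LocalEven.le_centMod.1 (inf_le_right.trans inf_le_left)).2
        ((LocalEven.pResOf_le _).trans (inf_le_right.trans inf_le_right))
        (hT.pg.to_le (inf_le_right.trans hPT)))
    · rw [le_antisymm (inf_le_inf_left Z hPT) (le_inf inf_le_left k)] at nK
      exact a3 (h1 L a1 a2 (Or.inr nK))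
    · exact Subgroup.commutator_le.2 fun x hx y hy => by
        simpa only [commutatorElement_def, mul_assoc] using
          mul_mem (conj_mem_of_nz (hTZ (hPT hx)) hy.1) (inv_mem hy.1)
    · exact Subgroup.commutator_le.2 fun x hx y hy => by
        simpa only [commutatorElement_def, mul_assoc] using
          mul_mem hx (conj_mem_of_nz (nP (a1 hy.2)) (inv_mem hx))
  have hTM : T ≤ L ⊓ nz (Z ⊓ P) := le_inf a1 fun t ht => mem_nz_inf (hTZ ht) (nP (a1 ht))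
  have hM : L ⊓ nz (Z ⊓ P) < L := lt_of_le_of_ne inf_le_left fun e => hL (inf_eq_left.1 e)
  have m : MinIn T L (L ⊓ nz (Z ⊓ P)) :=
    LocalEven.minIn_of_sylow sL (fun h => a3 (h1 L a1 a2 (Or.inl h))) hTM hM fun X b1 b2 =>
      le_inf b2.le ((aut X b1 b2).trans (inf_comm P Z ▸ hE.aut_le (hPT.trans hTE)))
  obtain ⟨B, B₀, a, b1, b2, b3, b4, b5, b6, b7, b8⟩ := h2 L _ a1 a2 a3 m cL hL
  obtain ⟨c1, c2⟩ := Glaub.pl_of_quad (Z := Z ⊓ B) hp2 sL m b1 b2 b3 b4 b5 b6 b7 inf_le_right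
    (inf_le_left.trans (hZ.trans (cz_anti inf_le_left))) (fun g hg => by
      have := mem_nz_inf hg.2 (b2 hg.1)
      rwa [inf_assoc, inf_eq_right.2 b1] at this) b8
  have k := aut _ hTM hM
  exact hn ⟨P, hPT.trans hTE, c1.of_act b1 fun m hm => ⟨m, k hm, fun _ _ => rfl⟩,
    c2.of_act (inf_le_inf_left Z b1) fun m hm => ⟨m, k hm, fun _ _ => rfl⟩⟩

theorem wc_jn (F : FS G) : F.WC (jn 0 F.S) := by
  refine ⟨PLocal.jn_le _, fun g hg => mem_nz_iff.1 (mem_nz_of_le (cj_le_iff_le.2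
    (PLocal.jn_le_iff.2 fun A hA => cj_le_iff_le.1 (PLocal.abFam.le_jn (PLocal.abFam.of_card hA
      (F.cj_le (F.mono hg (PLocal.abFam.le_jn hA))) ?_ (fun b _ => pow_zero b)
        (card_cj g A).ge)))))⟩
  haveI := PLocal.abFam.comm hA
  rw [cj_def]; infer_instance

theorem IsMod.charP' (h : IsMod p D H) : LocalEven.CharP p H := LocalEven.charP_iff.2 h.charP

theorem IsMod.sub_le (h : IsMod p D H) {X : Subgroup G} (hX : X ≤ H) : ofGroup D.S X ≤ D :=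
  (ofGroup_mono le_rfl hX).trans h.eq.ge

/-- The invariant of the second reduction. -/
def Inv (p : ℕ) (Z Q : Subgroup G) (E D : FS G) : Prop :=
  ¬ Z ⊓ D.S ≤ Q ∧ ∃ Q₁, Q ≤ Q₁ ∧ Q₁ < D.S ∧ D.Nor Q₁ ∧ PMod p (D.aut Q₁) (cz Q₁) ∧
    ∀ K, Q₁ < K → K ≤ D.S → nz D.S ⊓ nz Q₁ ≤ nz K → D.NF K ≤ E

theorem Sat.inv_NF {U : Subgroup G} (s : D.Sat p) (ha : D.aut D.core ≤ ai D.S D.core)
    (hU : D.FN U) (hlt : D.core < U) (hlt' : D.S ⊓ nz U < D.S)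
    (hK : ∀ K, D.core < K → K ≤ D.S → D.S ⊓ nz U < D.S ⊓ nz K → D.NF K ≤ E) (hQ : Q ≤ D.core)
    (nZ : D.S ≤ nz Z) (hZ : ¬ Z ⊓ D.S ≤ Q) : Inv p Z Q E (D.NF U) := by
  have hc := D.nor_core
  have s' := s.NF hU
  have k0 : D.core < D.S ⊓ nz U := hlt.trans_le (le_NS hU.1)
  have k1 := hc.sub s.pg s' (normK_le _ _ _) (by rw [normK_S]; exact k0.le)
  unfold Inv
  rw [normK_S]
  refine ⟨fun h => ?_, D.core, hQ, k0, k1,
    (s.pmod_aiS _).mono ((aut_mono (normK_le _ _ _) _).trans ha) le_rfl,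
    fun K k1 k2 k3 => (normK_mono (normK_le _ _ _) (by rwa [normK_S]) le_rfl).trans
      (hK K k1 (k2.trans inf_le_left) ((s.lt_NS hlt').trans_le
        (le_inf inf_le_left fun x hx => k3 ⟨hx.2, hc.sc.S_le_nz hx.1⟩)))⟩
  by_cases hY : Z ⊓ D.S ≤ U
  · exact hZ (le_trans (le_inf inf_le_left (hY.trans (le_NS hU.1))) h)
  · obtain ⟨x, x1, x2, x3⟩ := exists_nz_of_not_le s.pg hU.1 inf_le_right (fun x hx =>
      mem_nz_inf (nZ (hU.1 hx)) (le_nz _ (hU.1 hx))) hY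
    exact x2 (hlt.le (hQ (h ⟨x1.1, x1.2, x3⟩)))

/-- The step below a system whose core has only inner automorphisms. -/
theorem red₂ (hp2 : p ≠ 2) (hn : ¬ Cc p Z E) (hr : Rich D.S)
    (hZ : Z ≤ cz Z) (hSZ : D.S ≤ nz Z) (hE : E.SC Z) (hSE : D.S ≤ E.S)
    (hG : ∀ D' ≤ D, ∀ K ≤ Z, D'.Nor K → D' ≤ E ∨ K ≤ Q) (D' : FS G) : D'.Sat p →
    (D' ≤ D ∧ Inv p Z Q E D') → D' ≤ E := by
  refine red (fun D' => D' ≤ D ∧ Inv p Z Q E D') (fun D' h => (S_le h.1).trans hSE) ?_ ?_ ?_ D'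
  · rintro D₁ D₂ ⟨a1, a2, Q₁, a3, a4, a5, a6, a7⟩ s1 s2 h e
    refine ⟨h.trans a1, e ▸ a2, Q₁, a3, e ▸ a4, a5.sub s1.pg s2 h (e ▸ a4.le),
      a6.mono (aut_mono h _) le_rfl, fun K k1 k2 k3 => (normK_mono h k2 le_rfl).trans ?_⟩
    rw [e] at k2 k3; exact a7 K k1 k2 k3
  · rintro D₁ U s ⟨a1, a2, Q₁, a3, -, a5, -⟩ ih ha hU hlt hlt' hK
    exact ih _ (NF_lt' hU.1 hlt.not_ge) (s.NF hU) ⟨(normK_le _ _ _).trans a1,
      s.inv_NF ha hU hlt hlt' hK (a3.trans a5.le_core) ((S_le a1).trans hSZ) a2⟩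
  · rintro D₁ hc ⟨a1, a2, Q₁, a3, a4, a5, a6, a7⟩
    obtain ⟨H, hH⟩ := hc.exists_model hr (S_le a1)
    have nQ := hH.le_nz_of_nor a5
    have k : ∀ X K, D₁.S ≤ X → X ≤ H → Q₁ < K → K ≤ D₁.S → nz D₁.S ⊓ nz Q₁ ≤ nz K → X ≤ nz K →
        ofGroup D₁.S X ≤ E := fun X K b1 b2 b3 b4 b5 b6 =>
      ((ofGroup_nor b1 b4 b6).le_NF (hH.sub_le b2)).trans (a7 K b3 b4 b5)
    have g : ∀ X K, D₁.S ≤ X → X ≤ H → K ≤ Z ⊓ D₁.S → X ≤ nz K → ofGroup D₁.S X ≤ E ∨ K ≤ Q :=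
      fun X K b1 b2 b3 b4 => hG _ ((hH.sub_le b2).trans a1) K (b3.trans inf_le_left)
        (ofGroup_nor b1 (b3.trans inf_le_right) b4)
    have h1 : ∀ X, D₁.S ≤ X → X ≤ H → X ≤ nz D₁.S ∨ X ≤ nz (Z ⊓ D₁.S) → ofGroup D₁.S X ≤ E :=
      fun X b1 b2 b3 => b3.elim (k X _ b1 b2 a4 le_rfl inf_le_left)
        fun b3 => (g X _ b1 b2 le_rfl b3).resolve_right a2
    have nZ : D₁.S ≤ nz Z := (S_le a1).trans hSZ
    rw [hH.eq]
    refine fin hp2 hn hH.syl hH.charP' hZ nZ hE ((S_le a1).trans hSE) h1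
      fun L M b1 b2 b3 _ b5 _ => ?_
    have sL := (hH.syl.mono b1 b2).isIn
    have h0 : pResOf p L ≤ cz Q₁ := LocalEven.pResOf_le_iff.2 fun x hx hc =>
      a6.mem_of_coprime (mem_aut_of (hH.M_of a4.le ((cj_of_nz (nQ (b2 hx))).le.trans a4.le) (b2 hx))
        (nQ (b2 hx))) hc
    obtain ⟨B, c1, c2, c3, a, c4, c5, c6⟩ := Glaub.exists_quad_mod sL b5 a4 (b2.trans nQ) h0
      fun K k1 k2 k3 k4 => b3 (k L K b1 b2 k1 k2 k3 k4)
    refine ⟨B, Q₁, a, c1, c2, b2.trans nQ, h0, c4, c5, c6, fun h => b3 ?_⟩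
    have nY : D₁.S ≤ nz (Z ⊓ D₁.S) := fun s hs => mem_nz_inf (nZ hs) (le_nz _ hs)
    refine (g L _ b1 b2 (inf_le_inf_left Z (c1.trans sL.pCoreOf_le)) h).elim id fun h' =>
      h1 L b1 b2 (Or.inr (sL.pResOf_sup.ge.trans (sup_le (h0.trans ((cz_anti (c3 _ inf_le_right nY
        ((inf_le_inf_right B inf_le_left).trans (h'.trans a3)))).trans (cz_le_nz _))) nY)))

theorem Sat.le_NF_zj (hF : F.Sat p) (hr : Rich F.S) (hp2 : p ≠ 2)
    (hn : ¬ Cc p (zOf (jn 0 F.S)) (F.NF (zOf (jn 0 F.S)))) : F ≤ F.NF (zOf (jn 0 F.S)) := by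
  set J := jn 0 F.S
  set Z := zOf J
  have hJ : J ≤ F.S := PLocal.jn_le _
  have hZJ : Z ≤ J := PLocal.zOf_le _
  have hZc : Z ≤ cz J := PLocal.zOf_le_centralizer _
  have nJ : nz J ≤ nz Z := PLocal.normalizer_le_normalizer_zOf _
  have nS : F.S ≤ nz Z := F.wc_jn.S_le_nz.trans nJ
  have eS : (F.NF Z).S = F.S := NF_S_of_normal nS
  have hE := (NF_nor (hZJ.trans hJ)).sc
  refine red (fun D => D ≤ F ∧ J ≤ D.S) (fun D h => (S_le h.1).trans eS.ge)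
    (fun D D' h _ _ k e => ⟨k.trans h.1, e ▸ h.2⟩) ?_ ?_ F hF ⟨le_rfl, hJ⟩
  · rintro D U s ⟨a1, a2⟩ ih ha hU hlt hlt' hK
    have hc := D.nor_core
    have nD : D.S ≤ nz Z := (S_le a1).trans nS
    by_cases hZ : Z ≤ D.core
    · exact (normK_le _ _ _).trans ((hc.of_le hZ (ha.trans ((ai_eq _ _).le.trans (sup_le
        (inf_le_left.trans nD) ((cz_anti hZ).trans (cz_le_nz _)))))).le_NF a1)
    refine red₂ hp2 hn (hr.mono (S_le a1)) (hZc.trans (cz_anti hZJ)) nD hE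
      ((S_le a1).trans eS.ge) (fun D' d K k1 k2 => or_iff_not_imp_right.2 fun k3 => ?_)
      _ (s.NF hU) ⟨normK_le _ _ _, s.inv_NF ha hU hlt hlt' hK le_rfl nD
        (by rwa [inf_eq_left.2 (hZJ.trans a2)])⟩
    have hKS : K ≤ D.S := k1.trans (hZJ.trans a2)
    obtain ⟨g, hg, hgn⟩ := s.exists_FN hKS
    have jK : J ≤ cz K := le_cz_comm.1 (k1.trans hZc)
    have jN : J ≤ D.S ⊓ nz K := le_inf a2 (jK.trans (cz_le_nz _))
    have gJ : g ∈ nz J := F.wc_jn.mem_nz (a1 _ _ hg) jN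
    refine (k2.le_NF d).trans (NF_le_of_cj hKS hg (normK_M_of (hZJ.trans hJ) le_rfl
      (inf_le_left.trans nD) (nJ gJ) (by
        rw [sup_eq_left.2 (hZJ.trans jN)]; exact a1 _ _ hg)) (ih _ (NF_lt' hgn.1 fun h => k3 ?_)
      (s.NF hgn) ⟨(normK_le _ _ _).trans a1, normK_S D _ _ ▸ le_inf a2 ?_⟩))
    · have := hc.sc.cj_inf (D.mono hg (le_NS hKS))
      rw [inf_eq_left.2 h, cj_inj] at this
      exact inf_eq_left.1 this
    · rw [← cj_of_nz gJ, ← cj_nz]; exact cj_mono (jK.trans (cz_le_nz _))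
  · rintro D hc ⟨a1, a2⟩
    obtain ⟨H, hH⟩ := hc.exists_model hr (S_le a1)
    have eJ : jn 0 D.S = J := PLocal.jn_eq_of_le a2 (S_le a1)
    have k : ∀ X, D.S ≤ X → X ≤ H → X ≤ nz Z → ofGroup D.S X ≤ F.NF Z := fun X b1 b2 b3 =>
      (ofGroup_nor b1 (hZJ.trans a2) b3).le_NF ((hH.sub_le b2).trans a1)
    have nD : D.S ≤ nz Z := (S_le a1).trans nS
    rw [hH.eq]
    refine fin hp2 hn hH.syl hH.charP' (hZc.trans (cz_anti hZJ)) nD hE ((S_le a1).trans eS.ge)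
      (fun X b1 b2 b3 => k X b1 b2 (b3.elim (fun b3 => b3.trans
        ((eJ ▸ PLocal.normalizer_le_normalizer_jn 0 D.S).trans nJ))
        fun b3 => by rwa [inf_eq_left.2 (hZJ.trans a2)] at b3)) fun L M b1 b2 b3 b4 _ b6 => ?_
    obtain ⟨B, c1, c2, c3, a, c4, c5, c6⟩ := Glaub.exists_quad_zj hp2 (hH.syl.mono b1 b2).isIn b4
      (hZc.trans (cz_anti hZJ)) (eJ ▸ hZc) nD (fun h => b3 (k L b1 b2 ((eJ ▸ h).trans nJ))) b6
    exact ⟨B, ⊥, a, c1, c2, by simp, by simp, c4, c5, c6, c3⟩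

end FS

variable {G : Type u} [Group G] [Finite G] {p : ℕ} [hp : Fact p.Prime]

theorem exists_pl_eig (hp2 : p ≠ 2) (S : Sylow p G)
    (h : ¬ ControlsStrongFusion p (zOf (jn 0 (S : Subgroup G)))) :
    Pl p S (nz (zOf (jn 0 (S : Subgroup G)))) ∧
      Eig p (zOf (jn 0 (S : Subgroup G))) (nz (zOf (jn 0 (S : Subgroup G)))) := by
  obtain ⟨G', _, _, ι, hι, hr⟩ := exists_rich G
  have hS := (syl_top S).map ι
  have hk := ker_le_of_inj hι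
  have hZ : zOf (jn 0 (S : Subgroup G)) ≤ S := (PLocal.zOf_le _).trans (PLocal.jn_le _)
  have nZ : (S : Subgroup G) ≤ nz (zOf (jn 0 (S : Subgroup G))) := (le_nz _).trans
    ((PLocal.normalizer_le_normalizer_jn _ _).trans (PLocal.normalizer_le_normalizer_zOf _))
  have e : zOf (jn 0 ((S : Subgroup G).map ι)) = (zOf (jn 0 (S : Subgroup G))).map ι := by
    rw [PLocal.map_zOf _ (by rw [(MonoidHom.ker_eq_bot_iff ι).2 hι]; exact disjoint_bot_right),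
      PLocal.map_jn _ hι]
  have key := (FS.ofGroup_sat hS).le_NF_zj (hr.mono (Subgroup.map_le_range _ _)) hp2
  have hc : zOf (jn 0 (S : Subgroup G)) ≤ cz (zOf (jn 0 (S : Subgroup G))) :=
    (PLocal.zOf_le_centralizer _).trans (cz_anti (PLocal.zOf_le _))
  rw [FS.ofGroup_S, e] at key
  generalize zOf (jn 0 (S : Subgroup G)) = Z at *
  have e' : (⊤ : Subgroup G).map ι ⊓ nz (Z.map ι) = (nz Z).map ι := by
    refine le_antisymm ?_ (le_inf (Subgroup.map_mono le_top) (map_le_nz le_rfl))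
    rintro _ ⟨⟨g, -, rfl⟩, hg⟩
    exact ⟨g, (map_mem_nz_iff (hk _)).1 hg, rfl⟩
  unfold FS.NF at key
  rw [FS.ofGroup_normK hS.le (Subgroup.map_mono hZ) le_rfl (cz_le_nz _), e',
    inf_eq_left.2 (map_le_nz nZ)] at key
  by_contra hn
  refine h ⟨S, hZ, fun A hA => ⟨hA, fun g hg => ?_⟩⟩
  have h1 : Subgroup.closure A ≤ S := (Subgroup.closure_le _).2 hA
  obtain ⟨-, -, c, hc, x, hx, e⟩ := (FS.ofGroup_M (Subgroup.map_mono nZ)).1 (key (by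
      rintro ⟨P, a1, a2, a3⟩
      rw [FS.ofGroup_aut (Subgroup.map_mono nZ) a1] at a2 a3
      have k : ∀ m ∈ ai ((nz Z).map ι) P, ∃ k ∈ (nz Z).map ι, ∀ w ∈ P,
          k * w * k⁻¹ = m * w * m⁻¹ := fun m hm => by
        obtain ⟨-, k, hk, e⟩ := mem_ai''.1 hm
        exact ⟨k, hk, fun w hw => (e w hw).symm⟩
      exact hn ⟨(a2.of_act a1 k).of_map (hk _), (a3.of_act inf_le_left fun m hm =>
        (k m hm).imp fun k hk => ⟨hk.1, fun w hw => hk.2 w hw.2⟩).of_map hc le_rfl⟩)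
    _ (ι g) (FS.ofGroup_M_of (Subgroup.map_mono h1) (by
      rw [← map_cj, cj_closure]; exact Subgroup.map_mono ((Subgroup.closure_le _).2 hg))
      ⟨g, trivial, rfl⟩))
  refine ⟨x, hx, fun a ha => hι ?_⟩
  simp only [map_mul, map_inv, e]
  exact (conj_mul_cz hc (Subgroup.mem_map_of_mem ι (Subgroup.subset_closure ha))).symm

theorem exists_of_eig {Z H : Subgroup G} (hZ : IsPGroup p Z) (h : Eig p Z H) :
    ∃ C ≤ Z, Nat.card C = p ∧ (H ⊓ cz C).relIndex (H ⊓ nz C) = p - 1 := by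
  obtain ⟨t, ht, n, hn, v, hv, hv1, e⟩ := h
  obtain ⟨w, hw, ho⟩ := FS.exists_order_p (T := Subgroup.zpowers v)
    (hZ.to_le (Subgroup.zpowers_le.2 hv)) (by simpa using hv1)
  have e' : t * w * t⁻¹ = w ^ n := by
    obtain ⟨k, rfl⟩ := Subgroup.mem_zpowers_iff.1 hw
    rw [← conj_zpow, e, ← zpow_natCast, ← zpow_natCast, ← zpow_mul, ← zpow_mul, mul_comm]
  have hc : Nat.card (Subgroup.zpowers w) = p := by rw [Nat.card_zpowers, ho]
  have tn : t ∈ nz (Subgroup.zpowers w) := mem_nz_of_le (by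
    rw [cj_zpowers, e', Subgroup.zpowers_le]; exact pow_mem (Subgroup.mem_zpowers w) n)
  refine ⟨_, Subgroup.zpowers_le.2 (Subgroup.zpowers_le.2 hv hw), hc, ?_⟩
  rw [show H ⊓ cz (Subgroup.zpowers w) = (H ⊓ nz (Subgroup.zpowers w)) ⊓ cz (Subgroup.zpowers w) by
    rw [inf_assoc, inf_eq_right.2 (cz_le_nz _)], Subgroup.inf_relIndex_left]
  refine Nat.dvd_antisymm ?_ ?_
  · rw [← relIndex_dn (MulEquiv.refl _) le_rfl inf_le_right, dn_cz, Subgroup.relIndex_bot_left,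
      ← Nat.totient_prime hp.out, ← hc, ← IsCyclic.card_mulAut]
    exact Subgroup.card_subgroup_dvd_card _
  · have k := pow_relIndex_mem (inf_le_right.trans (nz_le_nz_cz (Subgroup.zpowers w)))
      (Subgroup.mem_inf.2 ⟨ht, tn⟩)
    generalize (cz (Subgroup.zpowers w)).relIndex (H ⊓ nz (Subgroup.zpowers w)) = m at k
    have k2 : ∀ m : ℕ, t ^ m * w * (t ^ m)⁻¹ = w ^ n ^ m := fun m => by
      induction m with
      | zero => simp
      | succ m ih =>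
        rw [pow_succ', show t * t ^ m * w * (t * t ^ m)⁻¹ = t * (t ^ m * w * (t ^ m)⁻¹) * t⁻¹ by
          group, ih, ← conj_pow, e', ← pow_mul, pow_succ']
    have k3 := (k2 m).symm.trans (conj_eq_of_cz k (Subgroup.mem_zpowers w))
    rw [← hn, orderOf_dvd_iff_pow_eq_one, ← Nat.cast_pow, ← Nat.cast_one,
      ZMod.natCast_eq_natCast_iff, ← ho, ← pow_eq_pow_iff_modEq, k3, pow_one]

end Cfsg.Agent.Fusion
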